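import Cfsg.Agent.H0.VSuz2.D
set_option maxRecDepth 100000
set_option Elab.async false
namespace H0.VSuz2
open H0 BN 
theorem c0 : pairsW R 0 5 ((E.drop 0).take 26) = true := by decide +kernel
theorem c1 : pairsW R 5 5 ((E.drop 0).take 26) = true := by decide +kernel
theorem c2 : pairsW R 10 5 ((E.drop 0).take 26) = true := by decide +kernel
theorem c3 : pairsW R 15 1 ((E.drop 0).take 26) = true := by decide +kernel
theorem c4 : pairsW R 0 5 ((E.drop 26).take 6) = true := by decide +kernel
theorem c5 : pairsW R 5 5 ((E.drop 26).take 6) = true := by decide +kernel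
theorem c6 : pairsW R 10 5 ((E.drop 26).take 6) = true := by decide +kernel
theorem c7 : pairsW R 15 1 ((E.drop 26).take 6) = true := by decide +kernel
theorem c8 : pairsW R 0 5 ((E.drop 32).take 8) = true := by decide +kernel
theorem c9 : pairsW R 5 5 ((E.drop 32).take 8) = true := by decide +kernel
theorem c10 : pairsW R 10 5 ((E.drop 32).take 8) = true := by decide +kernel
theorem c11 : pairsW R 15 1 ((E.drop 32).take 8) = true := by decide +kernel
theorem c12 : eqW R 0 5 [7, 7] [] = true := by decide +kernel
theorem c13 : eqW R 5 5 [7, 7] [] = true := by decide +kernel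
theorem c14 : eqW R 10 5 [7, 7] [] = true := by decide +kernel
theorem c15 : eqW R 15 1 [7, 7] [] = true := by decide +kernel
theorem c16 : mapsP R [7] [0] [1] = true := by decide +kernel
end H0.VSuz2
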