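import Cfsg.Agent.H0.VSuz2.K0
set_option maxRecDepth 100000
set_option Elab.async false
namespace H0.VSuz2
open H0 BN 
universe u
theorem stem {G : Type u} [Group G] [Finite G] (P : Pres G 7 H0.MSuz.B) (hG : commutator G = ⊤) : StemElt G (2 ^ (0 + 1)) :=
  stemElt_of P hG R.p J c (by decide) (all_take_done (all_take_step (all_take_step (all_take_step (all_take_zero _ E) (pw_done R (pw_step R (pw_step R (pw_step R (pw_step R (pw_zero R ((E.drop 0).take 26)) c0) c1) c2) c3))) (pw_done R (pw_step R (pw_step R (pw_step R (pw_step R (pw_zero R ((E.drop 26).take 6)) c4) c5) c6) c7))) (pw_done R (pw_step R (pw_step R (pw_step R (pw_step R (pw_zero R ((E.drop 32).take 8)) c8) c9) c10) c11))) (by decide +kernel)) (eq_of_bits R (eqb_step R (eqb_step R (eqb_step R (eqb_step R (eqb_zero R [7, 7] []) c12) c13) c14) c15))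
    (ne_one_of_maps R (u := [7]) c16 (by decide)) (by decide +kernel)
end H0.VSuz2
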